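import Mathlib
import Cfsg.Agent.SPOR.LE.Red
import Cfsg.Agent.SOLV.Basic

/-!
Pairs of elementary abelian TI-subgroups normalized by involutions of each other.
-/

set_option autoImplicit false

namespace CL.LE

open CL.LX CL.MSS Subgroup

variable {G : Type*} [Group G]

/-- an elementary abelian self-centralizing subgroup whose normalizer contains the centralizers of
its involutions -/
structure TIs (X : Subgroup G) : Prop where
  sq : ∀ u ∈ X, u * u = 1
  norm : ∀ u ∈ X, u ≠ 1 → ∀ c : G, c * u = u * c → c ∈ normalizer (X : Set G)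
  cent : ∀ c : G, (∀ u ∈ X, c * u = u * c) → c ∈ X

/-- two such subgroups, each containing an involution normalizing the other -/
structure TPr (X Y : Subgroup G) : Prop where
  x : TIs X
  y : TIs Y
  disj : ∀ u ∈ X, u ∈ Y → u = 1
  exX : ∃ u ∈ X, u ≠ 1 ∧ u ∈ normalizer (Y : Set G)
  exY : ∃ u ∈ Y, u ≠ 1 ∧ u ∈ normalizer (X : Set G)

theorem nm_conj {X : Subgroup G} {f u : G} (hf : f ∈ normalizer (X : Set G)) (hu : u ∈ X) :
    f * u * f⁻¹ ∈ X := (mem_normalizer_iff.1 hf u).1 hu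

theorem nm_of [Finite G] {X : Subgroup G} {f : G} (h : ∀ u ∈ X, f * u * f⁻¹ ∈ X) :
    f ∈ normalizer (X : Set G) := mem_normalizer_of_cj_le (cj_le_iff_forall.2 h)

theorem ti_ncard_conj (K : Subgroup G) (c : G) :
    Nat.card K = ((fun g => g * c * g⁻¹) '' (K : Set G)).ncard *
      Nat.card (K ⊓ centralizer {c} : Subgroup G) := by
  let : MulAction K G := MulAction.compHom G (MulAut.conj.comp K.subtype)
  have h1 : MulAction.orbit K c = (fun g => g * c * g⁻¹) '' (K : Set G) := by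
    ext y
    constructor
    · rintro ⟨g, rfl⟩; exact ⟨g, g.2, rfl⟩
    · rintro ⟨g, hg, rfl⟩; exact ⟨⟨g, hg⟩, rfl⟩
  have h2 : MulAction.stabilizer K c = (K ⊓ centralizer {c} : Subgroup G).subgroupOf K := by
    ext g
    rw [MulAction.mem_stabilizer_iff, mem_subgroupOf, mem_inf, mem_centralizer_singleton_iff]
    show (g : G) * c * (g : G)⁻¹ = c ↔ _
    rw [mul_inv_eq_iff_eq_mul]
    exact ⟨fun h => ⟨g.2, h⟩, fun h => h.2⟩
  rw [← h1, ← MulAction.index_stabilizer, ← Nat.card_congr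
    (subgroupOfEquivOfLe (inf_le_left : K ⊓ centralizer {c} ≤ K)).toEquiv, ← h2, index_mul_card]

/-- the commutator `[v, f]` for an involution `v` -/
def cm (v f : G) : G := v * (f * v * f⁻¹)

namespace TIs

variable {X : Subgroup G}

theorem comm (h : TIs X) {a b : G} (ha : a ∈ X) (hb : b ∈ X) : a * b = b * a := by
  rw [← inv_of_sq (h.sq _ (X.mul_mem ha hb)), mul_inv_rev, inv_of_sq (h.sq _ ha),
    inv_of_sq (h.sq _ hb)]

theorem cm_mem (_h : TIs X) {v f : G} (hv : v ∈ X) (hf : f ∈ normalizer (X : Set G)) :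
    cm v f ∈ X := X.mul_mem hv (nm_conj hf hv)

theorem conj_eq (h : TIs X) {v : G} (hv : v ∈ X) (f : G) : f * v * f⁻¹ = v * cm v f := by
  rw [cm, ← mul_assoc, h.sq v hv, one_mul]

theorem cm_eq_one (h : TIs X) {v : G} (hv : v ∈ X) {f : G} : cm v f = 1 ↔ v * f = f * v := by
  rw [cm, mul_eq_one_iff_inv_eq, inv_of_sq (h.sq v hv), eq_mul_inv_iff_mul_eq]

theorem cm_comm (h : TIs X) {v f : G} (hv : v ∈ X) (hf : f ∈ normalizer (X : Set G))
    (h2 : f * f = 1) : cm v f * f = f * cm v f := by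
  have e : f * cm v f * f⁻¹ = cm v f := by
    calc f * cm v f * f⁻¹ = (f * v * f⁻¹) * ((f * f) * v * (f * f)⁻¹) := by rw [cm]; group
      _ = _ := by rw [h2, one_mul, inv_one, mul_one, h.comm (nm_conj hf hv) hv, cm]
  calc cm v f * f = f * cm v f * f⁻¹ * f := by rw [e]
    _ = _ := by group

theorem cm_mul (h : TIs X) {v w f : G} (hv : v ∈ X) (hw : w ∈ X)
    (hf : f ∈ normalizer (X : Set G)) : cm (v * w) f = cm v f * cm w f := by
  have := h.comm hw (nm_conj hf hv)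
  calc cm (v * w) f = v * (w * (f * v * f⁻¹)) * (f * w * f⁻¹) := by rw [cm]; group
    _ = _ := by rw [this, cm, cm]; group

theorem exists_fix (h : TIs X) {f : G} (hf : f ∈ normalizer (X : Set G)) (h2 : f * f = 1)
    {v : G} (hv : v ∈ X) (h1 : v ≠ 1) : ∃ u ∈ X, u ≠ 1 ∧ u * f = f * u := by
  by_cases e : cm v f = 1
  · exact ⟨v, hv, h1, (h.cm_eq_one hv).1 e⟩
  · exact ⟨_, h.cm_mem hv hf, e, h.cm_comm hv hf h2⟩

/-- the homomorphism `v ↦ [v, f]` -/
def cmHom (h : TIs X) {f : G} (hf : f ∈ normalizer (X : Set G)) : X →* G where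
  toFun v := cm v f
  map_one' := by simp [cm]
  map_mul' v w := h.cm_mul v.2 w.2 hf

theorem card_range [Finite G] (h : TIs X) {f : G} (hf : f ∈ normalizer (X : Set G)) :
    Nat.card (h.cmHom hf).range * Nat.card (X ⊓ centralizer {f} : Subgroup G) = Nat.card X := by
  have e : (h.cmHom hf).ker = (X ⊓ centralizer {f} : Subgroup G).subgroupOf X := by
    ext v
    rw [MonoidHom.mem_ker, mem_subgroupOf, mem_inf, mem_centralizer_singleton_iff]
    exact (h.cm_eq_one v.2).trans ⟨fun a => ⟨v.2, a⟩, fun a => a.2⟩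
  rw [← Nat.card_congr (subgroupOfEquivOfLe (inf_le_left : X ⊓ centralizer {f} ≤ X)).toEquiv,
    ← e, ← index_ker, index_mul_card]

end TIs

namespace TPr

variable {X Y : Subgroup G}

theorem symm (h : TPr X Y) : TPr Y X := ⟨h.y, h.x, fun u a b => h.disj u b a, h.exY, h.exX⟩

theorem comm0 (h : TPr X Y) {u f : G} (hu : u ∈ X) (hu' : u ∈ normalizer (Y : Set G)) (hf : f ∈ Y)
    (hf' : f ∈ normalizer (X : Set G)) : u * f = f * u := by
  refine (h.x.cm_eq_one hu).1 (h.disj _ (h.x.cm_mem hu hf') ?_)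
  have : cm u f = (u * f * u⁻¹) * f⁻¹ := by rw [cm, inv_of_sq (h.x.sq u hu)]; group
  rw [this]
  exact Y.mul_mem (nm_conj hu' hf) (Y.inv_mem hf)

theorem cent_iff (h : TPr X Y) {u f : G} (hu : u ∈ X) (hf : f ∈ Y)
    (hf' : f ∈ normalizer (X : Set G)) (h1 : f ≠ 1) :
    u * f = f * u ↔ u ∈ normalizer (Y : Set G) :=
  ⟨h.y.norm f hf h1 u, fun a => h.comm0 hu a hf hf'⟩

theorem cent_eq (h : TPr X Y) {f : G} (hf : f ∈ Y) (hf' : f ∈ normalizer (X : Set G)) (h1 : f ≠ 1) :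
    X ⊓ centralizer {f} = X ⊓ normalizer (Y : Set G) := by
  ext u
  rw [mem_inf, mem_inf, mem_centralizer_singleton_iff]
  exact and_congr_right fun hu => h.cent_iff hu hf hf' h1

theorem exists_out (h : TPr X Y) : ∃ v ∈ X, v ∉ normalizer (Y : Set G) := by
  by_contra hc
  push Not at hc
  obtain ⟨f, hf, h1, hf'⟩ := h.exY
  exact h1 (h.disj f (h.x.cent f fun u hu => (h.comm0 hu (hc u hu) hf hf').symm) hf)

theorem cm_mem (h : TPr X Y) {v f : G} (hv : v ∈ X) (hf : f ∈ Y) (hf' : f ∈ normalizer (X : Set G)) :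
    cm v f ∈ normalizer (Y : Set G) := by
  by_cases h1 : f = 1
  · rw [h1, (h.x.cm_eq_one hv).2 (by simp)]; exact one_mem _
  · exact (h.cent_iff (h.x.cm_mem hv hf') hf hf' h1).1 (h.x.cm_comm hv hf' (h.y.sq f hf))

/-- `f ↦ [v, f]`, `Y₀ → X₀` -/
def cmMap (h : TPr X Y) {v : G} (hv : v ∈ X) (f : ↥(Y ⊓ normalizer (X : Set G))) :
    ↥(X ⊓ normalizer (Y : Set G)) :=
  ⟨cm v f, h.x.cm_mem hv f.2.2, h.cm_mem hv f.2.1 f.2.2⟩

theorem cmMap_inj (h : TPr X Y) {v : G} (hv : v ∈ X) (hn : v ∉ normalizer (Y : Set G)) :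
    Function.Injective (h.cmMap hv) := by
  intro f f' e
  have e1 : cm v f = cm v f' := congrArg Subtype.val e
  have e2 : (f : G) * v * (f : G)⁻¹ = f' * v * (f' : G)⁻¹ := mul_left_cancel e1
  by_contra hne
  have hm := (f'⁻¹ * f).2
  refine hn ((h.cent_iff hv hm.1 hm.2 fun a => hne ?_).1 ?_)
  · exact (inv_mul_eq_one.1 (Subtype.ext a)).symm
  · change v * ((f' : G)⁻¹ * f) = (f' : G)⁻¹ * f * v
    calc v * ((f' : G)⁻¹ * f) = (f' : G)⁻¹ * (f' * v * (f' : G)⁻¹) * f := by group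
      _ = _ := by rw [← e2]; group

theorem card_le [Finite G] (h : TPr X Y) :
    Nat.card ↥(Y ⊓ normalizer (X : Set G)) ≤ Nat.card ↥(X ⊓ normalizer (Y : Set G)) := by
  obtain ⟨v, hv, hn⟩ := h.exists_out
  exact Nat.card_le_card_of_injective _ (h.cmMap_inj hv hn)

theorem card_eq [Finite G] (h : TPr X Y) :
    Nat.card ↥(Y ⊓ normalizer (X : Set G)) = Nat.card ↥(X ⊓ normalizer (Y : Set G)) :=
  le_antisymm h.card_le h.symm.card_le

theorem exists_cm [Finite G] (h : TPr X Y) {v u : G} (hv : v ∈ X) (hn : v ∉ normalizer (Y : Set G))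
    (hu : u ∈ X) (hu' : u ∈ normalizer (Y : Set G)) :
    ∃ f ∈ Y, f ∈ normalizer (X : Set G) ∧ cm v f = u := by
  obtain ⟨f, e⟩ := ((Nat.bijective_iff_injective_and_card _).2
    ⟨h.cmMap_inj hv hn, h.card_eq⟩).2 ⟨u, hu, hu'⟩
  exact ⟨f, f.2.1, f.2.2, congrArg Subtype.val e⟩

end TPr

/-- the pair together with the extraspecial group `P` of an involution `c ∈ X₀` -/
structure TQ (X Y P : Subgroup G) (c f : G) : Prop extends TPr X Y where
  lx : LX P c
  le : X ≤ P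
  sep : ∀ u ∈ Y, u ∈ P → u = 1
  cX : c ∈ X
  cN : c ∈ normalizer (Y : Set G)
  fY : f ∈ Y
  fN : f ∈ normalizer (X : Set G)
  f1 : f ≠ 1
  card : 2 * Nat.card P = Nat.card X * Nat.card X

namespace TQ

variable {X Y P : Subgroup G} {c f e : G}

theorem nX (h : TQ X Y P c f) (he : e ∈ P) : e ∈ normalizer (X : Set G) :=
  h.x.norm c h.cX h.lx.z_ne e (h.lx.z_comm e he)

theorem nY (h : TQ X Y P c f) (hf : e * f = f * e) : e ∈ normalizer (Y : Set G) :=
  h.y.norm f h.fY h.f1 e hf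

theorem cY0 (h : TQ X Y P c f) (he : e ∈ P) (hf : e * f = f * e) {y : G} (hy : y ∈ Y)
    (hy' : y ∈ normalizer (X : Set G)) : y * e = e * y := by
  refine (h.y.cm_eq_one hy).1 (h.sep _ (h.y.cm_mem hy (h.nY hf)) ?_)
  have : cm y e = (y * e * y⁻¹) * e⁻¹ := by rw [cm, inv_of_sq (h.y.sq y hy)]; group
  rw [this]
  exact P.mul_mem (h.lx.norm y (h.comm0 h.cX h.cN hy hy').symm e he) (P.inv_mem he)

/-- conjugating the first entry of `[v, f']` by an element of `P` does not change it -/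
theorem cm_conj (h : TQ X Y P c f) (he : e ∈ P) {v y : G} (hv : v ∈ X) (hy : y ∈ Y)
    (hy' : y ∈ normalizer (X : Set G)) : cm (e * v * e⁻¹) y = cm v y := by
  rcases h.lx.toES.conj_cases (h.le hv) he with a | a
  · rw [a]
  · rw [a, h.x.cm_mul hv h.cX hy', (h.x.cm_eq_one h.cX).2 (h.comm0 h.cX h.cN hy hy'), mul_one]

theorem cX0 [Finite G] (h : TQ X Y P c f) (he : e ∈ P) (hf : e * f = f * e) {u : G} (hu : u ∈ X)
    (hu' : u ∈ normalizer (Y : Set G)) : u * e = e * u := by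
  obtain ⟨v, hv, hn⟩ := h.exists_out
  obtain ⟨y, hy, hy', rfl⟩ := h.exists_cm hv hn hu hu'
  have e1 := h.cm_conj he hv hy hy'
  have e2 := h.cY0 he hf hy hy'
  have e3 : e * y * e⁻¹ = y := by rw [← e2]; group
  calc cm v y * e = cm (e * v * e⁻¹) (e * y * e⁻¹) * e := by rw [e3, e1]
    _ = _ := by simp only [cm]; group

theorem cm_Y0 [Finite G] (h : TQ X Y P c f) (he : e ∈ P) (hf : e * f = f * e) {w : G} (hw : w ∈ Y) :
    cm w e ∈ normalizer (X : Set G) := by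
  obtain ⟨u, hu, h1, hu'⟩ := h.exX
  refine (h.symm.cent_iff (h.y.cm_mem hw (h.nY hf)) hu hu' h1).1 ?_
  refine (h.y.cm_eq_one (h.y.cm_mem hw (h.nY hf))).1 ?_
  have e1 := h.cY0 he hf (h.y.cm_mem hw hu') (h.symm.cm_mem hw hu hu')
  have e2 := h.cX0 he hf hu hu'
  have e3 : e * u * e⁻¹ = u := by rw [← e2]; group
  have e4 : cm (e * w * e⁻¹) u = cm w u := by
    calc cm (e * w * e⁻¹) u = cm (e * w * e⁻¹) (e * u * e⁻¹) := by rw [e3]
      _ = e * cm w u * e⁻¹ := by simp only [cm]; group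
      _ = _ := by rw [← e1]; group
  change cm (w * (e * w * e⁻¹)) u = 1
  rw [h.y.cm_mul hw (nm_conj (h.nY hf) hw) hu', e4]
  exact h.y.sq _ (h.y.cm_mem hw hu')

theorem c_not (h : TQ X Y P c f) : c ∉ Y := fun a => h.lx.z_ne (h.disj c h.cX a)

theorem sqR [Finite G] (h : TQ X Y P c f) (he : e ∈ P) (hf : e * f = f * e) : e * e = 1 := by
  refine (h.lx.sq e he).resolve_right fun a => h.c_not ?_
  rw [← a]
  refine h.y.cent _ fun w hw => ?_
  have hm := h.y.cm_mem hw (h.nY hf)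
  have e1 := h.cY0 he hf hm (h.cm_Y0 he hf hw)
  have e2 := h.y.conj_eq hw e
  have e3 : e * cm w e * e⁻¹ = cm w e := by rw [← e1]; group
  calc e * e * w = e * (e * w * e⁻¹) * e⁻¹ * (e * e) := by group
    _ = e * (w * cm w e) * e⁻¹ * (e * e) := by rw [e2]
    _ = (e * w * e⁻¹) * (e * cm w e * e⁻¹) * (e * e) := by group
    _ = w * (cm w e * cm w e) * (e * e) := by rw [e3, e2]; group
    _ = _ := by rw [h.y.sq _ hm, mul_one]

theorem c_comm (h : TQ X Y P c f) : c * f = f * c := h.comm0 h.cX h.cN h.fY h.fN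

theorem card_R [Finite G] (h : TQ X Y P c f) :
    Nat.card ↥(P ⊓ centralizer ({f} : Set G)) ≤ Nat.card X := by
  set R := P ⊓ centralizer ({f} : Set G) with hR
  have hsq : ∀ e ∈ R, e * e = 1 := fun e he => h.sqR he.1 (mem_centralizer_singleton_iff.1 he.2)
  have e1 := h.lx.toES.card_centralizer (A := R) inf_le_left
    ⟨h.lx.z_mem, mem_centralizer_singleton_iff.2 h.c_comm⟩
  have hle : R ≤ P ⊓ centralizer (R : Set G) := fun a ha => ⟨ha.1, fun b hb => by
    rw [← inv_of_sq (hsq _ (R.mul_mem hb ha)), mul_inv_rev, inv_of_sq (hsq _ ha),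
      inv_of_sq (hsq _ hb)]⟩
  have e2 := card_le_of_le hle
  rw [h.card] at e1
  exact Nat.mul_self_le_mul_self_iff.1 (e1 ▸ Nat.mul_le_mul_right _ e2)

theorem card_X0 [Finite G] (h : TQ X Y P c f) :
    Nat.card (h.x.cmHom h.fN).range * Nat.card ↥(X ⊓ normalizer (Y : Set G)) = Nat.card X := by
  rw [← h.cent_eq h.fY h.fN h.f1]; exact h.x.card_range h.fN

theorem range_le (h : TQ X Y P c f) : (h.x.cmHom h.fN).range ≤ X := by
  rintro _ ⟨v, rfl⟩; exact h.x.cm_mem v.2 h.fN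

theorem conj_mem (h : TQ X Y P c f) {t : G} (ht : t ∈ P)
    (hc : ∀ v ∈ X, cm v f * t = t * cm v f) :
    f * (t * f * t⁻¹) ∈ X ⊓ normalizer (Y : Set G) := by
  have f2 := h.y.sq f h.fY
  have fi := inv_of_sq f2
  have hX : f * (t * f * t⁻¹) ∈ X := by
    refine h.x.cent _ fun u hu => ?_
    have hv : t⁻¹ * u * t⁻¹⁻¹ ∈ X := nm_conj (inv_mem (h.nX ht)) hu
    have e1 := h.cm_conj (inv_mem ht) hu h.fY h.fN
    have e2 := h.x.conj_eq hv f
    have e3 := h.x.conj_eq hu f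
    have e4 := hc u hu
    have e5 : t * f * t⁻¹ * u * (t * f * t⁻¹)⁻¹ = f * u * f⁻¹ := by
      calc t * f * t⁻¹ * u * (t * f * t⁻¹)⁻¹ = t * (f * (t⁻¹ * u * t⁻¹⁻¹) * f⁻¹) * t⁻¹ := by group
        _ = u * (t * cm u f) * t⁻¹ := by rw [e2, e1]; group
        _ = _ := by rw [← e4, e3]; group
    calc f * (t * f * t⁻¹) * u = f * (t * f * t⁻¹ * u * (t * f * t⁻¹)⁻¹) * (t * f * t⁻¹) := by group
      _ = (f * f) * u * (f⁻¹ * (t * f * t⁻¹)) := by rw [e5]; group
      _ = _ := by rw [f2, fi, one_mul]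
  refine ⟨hX, (h.cent_iff hX h.fY h.fN h.f1).1 ?_⟩
  have e6 := h.x.sq _ hX
  have e7 : t * f * t⁻¹ * (t * f * t⁻¹) = 1 := by
    calc _ = t * (f * f) * t⁻¹ := by group
      _ = 1 := by rw [f2]; group
  generalize t * f * t⁻¹ = s at e6 e7
  have e8 : f * s = s * f := by rw [← inv_of_sq e6, mul_inv_rev, inv_of_sq e7, fi]
  rw [mul_assoc, ← e8]

/-- the main count: for `c ∈ [X, f]` the coset `f X₀` consists of conjugates of `f` -/
theorem main [Finite G] (h : TQ X Y P c f) {v : G} (hv : v ∈ X) (hc : cm v f = c) :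
    Nat.card ↥(P ⊓ centralizer ({f} : Set G)) = Nat.card X ∧
      ∀ u ∈ X, u ∈ normalizer (Y : Set G) → ∃ t : G, t * f * t⁻¹ = f * u := by
  set K := (h.x.cmHom h.fN).range with hK
  set X0 := X ⊓ normalizer (Y : Set G) with hX0
  set T := P ⊓ centralizer (K : Set G) with hT
  have f2 := h.y.sq f h.fY
  have e1 := h.lx.toES.card_centralizer (A := K) (h.range_le.trans h.le) ⟨⟨v, hv⟩, hc⟩
  have e2 := h.card_X0
  have e3 := ti_ncard_conj T f
  have e4 : Nat.card ↥(T ⊓ centralizer ({f} : Set G)) ≤ Nat.card ↥(P ⊓ centralizer ({f} : Set G)) :=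
    card_le_of_le (inf_le_inf_right _ inf_le_left)
  have e5 := h.card_R
  have hsub : (fun g => g * f * g⁻¹) '' (T : Set G) ⊆ (fun u => f * u) '' (X0 : Set G) := by
    rintro _ ⟨t, ht, rfl⟩
    refine ⟨_, h.conj_mem ht.1 fun w hw => ht.2 _ ⟨⟨w, hw⟩, rfl⟩, ?_⟩
    simp only [← mul_assoc, f2, one_mul]
  have e6 : ((fun u => f * u) '' (X0 : Set G)).ncard = Nat.card X0 := by
    rw [Set.ncard_image_of_injective _ (mul_right_injective f)]; rfl
  have e7 := Set.ncard_le_ncard hsub (Set.toFinite _)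
  rw [e6] at e7
  have e8 : Nat.card T = Nat.card X0 * Nat.card X := by
    have hp : 0 < Nat.card K := Nat.card_pos
    refine Nat.eq_of_mul_eq_mul_right hp ?_
    rw [e1, h.card]
    conv_lhs => rw [← e2]
    rw [← e2]; ring
  have p0 : 0 < Nat.card X0 := Nat.card_pos
  have p1 : 0 < Nat.card X := Nat.card_pos
  rw [e8] at e3
  set m := ((fun g => g * f * g⁻¹) '' (T : Set G)).ncard
  set r := Nat.card ↥(T ⊓ centralizer ({f} : Set G))
  have e9 : r = Nat.card X := by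
    by_contra hne
    have : m * r < Nat.card X0 * Nat.card X :=
      Nat.mul_lt_mul_of_le_of_lt e7 (lt_of_le_of_ne (e4.trans e5) hne) p0
    omega
  rw [e9] at e3
  have e10 : Nat.card X0 = m := Nat.eq_of_mul_eq_mul_right p1 e3
  refine ⟨by omega, fun u hu hu' => ?_⟩
  have := Set.eq_of_subset_of_ncard_le hsub (by rw [e6, e10]) (Set.toFinite _)
  obtain ⟨t, -, e⟩ : f * u ∈ (fun g => g * f * g⁻¹) '' (T : Set G) := by
    rw [this]; exact ⟨u, ⟨hu, hu'⟩, rfl⟩
  exact ⟨t, e⟩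

/-- `C_P(X₀) = R X` -/
theorem decomp [Finite G] (h : TQ X Y P c f) {v : G} (hv : v ∈ X) (hc : cm v f = c) {p : G}
    (hp : p ∈ P) (hx : ∀ u ∈ X, u ∈ normalizer (Y : Set G) → u * p = p * u) :
    ∃ e ∈ P, e * f = f * e ∧ ∃ x ∈ X, e * x = p := by
  set R := P ⊓ centralizer ({f} : Set G) with hR
  set X0 := X ⊓ normalizer (Y : Set G) with hX0
  have hn : R ≤ normalizer (X : Set G) := fun e he => h.nX he.1
  have e1 := h.lx.toES.card_centralizer (A := X0) (inf_le_left.trans h.le) ⟨h.cX, h.cN⟩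
  have e2 : R ⊓ X = X0 := by
    rw [hX0, ← h.cent_eq h.fY h.fN h.f1, hR, inf_comm, ← inf_assoc, inf_eq_left.2 h.le]
  have e3 : Nat.card ↥(R ⊔ X) * Nat.card ↥(R ⊓ X) = Nat.card R * Nat.card X :=
    CL.card_sup_mul_card_inf_of_le_normalizer hn
  have hle : R ⊔ X ≤ P ⊓ centralizer (X0 : Set G) := by
    refine sup_le (fun e he => ⟨he.1, fun u hu => ?_⟩) fun x hx => ⟨h.le hx, fun u hu => ?_⟩
    · exact h.cX0 he.1 (mem_centralizer_singleton_iff.1 he.2) hu.1 hu.2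
    · exact h.x.comm hu.1 hx
  rw [e2, (h.main hv hc).1, ← h.card, ← e1] at e3
  have e4 := Nat.eq_of_mul_eq_mul_right (Nat.card_pos (α := X0)) e3
  have e5 := eq_of_le_of_card_ge hle e4.ge
  have hm : p ∈ R ⊔ X := by rw [e5]; exact ⟨hp, fun u hu => hx u hu.1 hu.2⟩
  obtain ⟨e, he, x, hx', rfl⟩ := (mem_sup_of_normalizes_right hn).1 hm
  exact ⟨e, he.1, mem_centralizer_singleton_iff.1 he.2, x, hx', rfl⟩

end TQ

end CL.LE
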